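import Mathlib
import Cfsg.Agent.Lib.Gallagher
import Cfsg.Agent.H82.Irr
import Cfsg.Agent.H83.FullyRamified
import Cfsg.Agent.H4.BrauerBasic
import Cfsg.Agent.H4.IrrCount

/-!
# Characters fully ramified over a central subgroup (lead)

If `Z` is central in `Q`, `ℓ` a linear character of `Z` such that `x ↦ ℓ [x, y]` is
nondegenerate on `Q / Z`, then `ℓ ^ Q = e χ` for an irreducible `χ`, with `e ^ 2 = |Q : Z|`.
-/

set_option autoImplicit false
set_option linter.style.haveILetI false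

namespace Cfsg.Agent.Glaub.CT

open Cfsg Cfsg.Agent.H4
open scoped ComplexConjugate

universe u

variable {Q : Type u} [Group Q]

/-- A central element acts on an irreducible character by a scalar. -/
theorem central_scalar [Finite Q] (χ : IrrCharacter Q) (z : Q) (hz : ∀ g : Q, g * z = z * g) :
    ∃ c : ℂ, ∀ g : Q, χ.1 (z * g) = c * χ.1 g := by
  obtain ⟨n, ρ, hirr, hρ, hn, -, -⟩ := Cfsg.Agent.H82.irr_rep χ
  have hcomm : ∀ a : Q, ρ z ∘ₗ ρ a = ρ a ∘ₗ ρ z := by
    intro a
    have h5 : ρ (z * a) = ρ (a * z) := by rw [hz a]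
    rw [map_mul, map_mul] at h5
    exact h5
  obtain ⟨c, hc⟩ := Cfsg.Agent.H82.schur_scalar ρ (ρ z) hcomm
  refine ⟨c, ?_⟩
  intro g
  rw [← hρ]
  change LinearMap.trace ℂ _ (ρ (z * g)) = c * LinearMap.trace ℂ _ (ρ g)
  have e : (c • (LinearMap.id : (Fin n → ℂ) →ₗ[ℂ] (Fin n → ℂ))) * ρ g = c • ρ g := by
    ext v
    simp
  rw [map_mul, hc, e, map_smul, smul_eq_mul]

theorem fully_ramified_central [Fintype Q] (Z : Subgroup Q) [Fintype Z]
    (hcent : ∀ z ∈ Z, ∀ g : Q, g * z = z * g) (ℓ : Z →* ℂˣ)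
    (hnd : ∀ x : Q, x ∉ Z → ∃ (y : Q) (hz : x * y * x⁻¹ * y⁻¹ ∈ Z), ℓ ⟨_, hz⟩ ≠ 1) :
    ∃ (χ : IrrCharacter Q) (e : ℕ),
      indFun Z (fun z : Z => ((ℓ z : ℂˣ) : ℂ)) = (fun g => (e : ℂ) * χ.1 g) ∧
        e ^ 2 = Z.index := by
  classical
  set lam : Z → ℂ := fun z => ((ℓ z : ℂˣ) : ℂ) with hlam
  have hlamirr : IsIrrCharacter Z lam := isIrrCharacter_of_hom ℓ
  haveI hZn : Z.Normal := ⟨fun z hz g => by
    have h1 : g * z * g⁻¹ = z := by rw [hcent z hz g, mul_inv_cancel_right]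
    rw [h1]; exact hz⟩
  have hZ0 : (Nat.card Z : ℂ) ≠ 0 := by
    have : 0 < Nat.card Z := Nat.card_pos
    exact_mod_cast this.ne'
  have hQ0 : (Nat.card Q : ℂ) ≠ 0 := by
    have : 0 < Nat.card Q := Nat.card_pos
    exact_mod_cast this.ne'
  have hcardC : (Nat.card Z : ℂ) * (Z.index : ℂ) = (Nat.card Q : ℂ) := by
    exact_mod_cast Subgroup.card_mul_index Z
  have hInd_off : ∀ g : Q, g ∉ Z → indFun Z lam g = 0 := by
    intro g hg
    rw [indFun_apply]
    have h1 : ∀ x : Q, extendByZero Z lam (x⁻¹ * g * x) = 0 := by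
      intro x
      apply extendByZero_of_not_mem
      intro h
      apply hg
      have h2 := hZn.conj_mem _ h x
      have h3 : x * (x⁻¹ * g * x) * x⁻¹ = g := by group
      rw [h3] at h2
      exact h2
    simp [h1]
  have hInd_on : ∀ z : Z, indFun Z lam (z : Q) = (Z.index : ℂ) * lam z := by
    intro z
    rw [indFun_apply]
    have h1 : ∀ x : Q, extendByZero Z lam (x⁻¹ * (z : Q) * x) = lam z := by
      intro x
      have h2 : x⁻¹ * (z : Q) * x = z := by
        rw [mul_assoc, ← hcent z z.2 x, inv_mul_cancel_left]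
      rw [h2, extendByZero_coe]
    simp only [h1, Finset.sum_const, Finset.card_univ, nsmul_eq_mul]
    rw [← Nat.card_eq_fintype_card, ← hcardC]
    field_simp
  have hlam1 : lam 1 = 1 := by simp [hlam]
  have hindex0 : Z.index ≠ 0 := Subgroup.index_ne_zero_of_finite
  have hne : indFun Z lam ≠ 0 := by
    intro h0
    have h1 := hInd_on 1
    rw [h0, hlam1, mul_one] at h1
    apply hindex0
    have h2 : (Z.index : ℂ) = 0 := h1.symm
    exact_mod_cast h2
  obtain ⟨χ, hχ⟩ : ∃ χ : IrrCharacter Q, classInner (indFun Z lam) χ.1 ≠ 0 := by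
    by_contra hall
    simp only [not_exists, not_not] at hall
    exact hne (eq_zero_of_inner_irr_eq_zero (indFun_isClassFunction Z lam) hall)
  have hfr := frobenius_reciprocity Z lam χ.1 (irr_isClassFunction χ)
  have hcon : classInner (fun n : Z => χ.1 n) lam ≠ 0 := by
    rw [← classInner_conj_symm]
    intro h
    apply hχ
    rw [hfr]
    have h2 := congrArg conj h
    rw [Complex.conj_conj, map_zero] at h2
    exact h2
  have hinv : ∀ g : Q, Clifford.conjChar Z lam g = lam := by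
    intro g
    funext z
    rw [Clifford.conjChar_apply]
    congr 1
    apply Subtype.ext
    show g * (z : Q) * g⁻¹ = z
    rw [hcent z z.2 g, mul_inv_cancel_right]
  have hres := Cfsg.Agent.H83.res_eq_smul_of_invariant Z χ.2 hlamirr hcon hinv
  obtain ⟨d, hd0, hd⟩ := irr_one_eq_natCast χ
  have hd0' : (d : ℂ) ≠ 0 := by exact_mod_cast hd0.ne'
  have he' : classInner (fun n : Z => χ.1 n) lam = d := by
    have h1 := congrFun hres 1
    simp only [Pi.smul_apply, smul_eq_mul, hlam1, mul_one] at h1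
    rw [← h1]
    exact hd
  have hresz : ∀ z : Z, χ.1 z = (d : ℂ) * lam z := by
    intro z
    have h1 := congrFun hres z
    rw [he'] at h1
    exact h1
  have hvan : ∀ x : Q, x ∉ Z → χ.1 x = 0 := by
    intro x hx
    obtain ⟨y, hz, hne'⟩ := hnd x hx
    set z₀ : Z := ⟨_, hz⟩ with hz₀
    obtain ⟨c, hc⟩ := central_scalar χ ((z₀⁻¹ : Z) : Q) (fun g => hcent _ (z₀⁻¹).2 g)
    have hc1 : c = lam z₀⁻¹ := by
      have h1 := hc 1
      rw [mul_one, hresz, hd] at h1
      have h2 : (d : ℂ) * lam z₀⁻¹ = (d : ℂ) * c := by rw [h1]; ring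
      exact (mul_left_cancel₀ hd0' h2).symm
    have h2 : y * x * y⁻¹ = ((z₀⁻¹ : Z) : Q) * x := by
      rw [Subgroup.coe_inv, hz₀]
      show y * x * y⁻¹ = (x * y * x⁻¹ * y⁻¹)⁻¹ * x
      group
    have h3 : χ.1 x = c * χ.1 x := by
      rw [← hc x, ← h2]
      exact (irr_isClassFunction χ x y).symm
    have hcne : c ≠ 1 := by
      rw [hc1]
      intro h
      apply hne'
      have h4 : ℓ z₀⁻¹ = 1 := Units.ext h
      rw [map_inv, inv_eq_one] at h4
      exact h4
    have h5 : (1 - c) * χ.1 x = 0 := by linear_combination h3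
    rcases mul_eq_zero.mp h5 with h | h
    · exact absurd (sub_eq_zero.mp h).symm hcne
    · exact h
  have hnorm := irr_inner_self χ
  unfold classInner at hnorm
  rw [inv_mul_eq_one₀ hQ0] at hnorm
  have hsumZ : ∑ g : Q, χ.1 g * conj (χ.1 g) = ∑ z : Z, χ.1 z * conj (χ.1 z) := by
    rw [← Finset.sum_subtype (Finset.univ.filter (· ∈ Z)) (by simp)
      (fun g => χ.1 g * conj (χ.1 g))]
    symm
    apply Finset.sum_subset (Finset.filter_subset _ _)
    intro g _ hg
    have hg' : g ∉ Z := by simpa using hg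
    rw [hvan g hg', zero_mul]
  have hlamnorm : ∑ z : Z, lam z * conj (lam z) = (Nat.card Z : ℂ) := by
    have h1 := Clifford.classInner_irr_irr hlamirr hlamirr
    rw [if_pos rfl] at h1
    unfold classInner at h1
    rw [inv_mul_eq_one₀ hZ0] at h1
    exact h1.symm
  have hd2 : (d : ℂ) ^ 2 = (Z.index : ℂ) := by
    rw [hsumZ] at hnorm
    have h1 : ∑ z : Z, χ.1 z * conj (χ.1 z) = (d : ℂ) ^ 2 * (Nat.card Z : ℂ) := by
      rw [← hlamnorm, Finset.mul_sum]
      refine Finset.sum_congr rfl fun z _ => ?_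
      rw [hresz, map_mul, Complex.conj_natCast]; ring
    rw [h1, ← hcardC] at hnorm
    have h2 : (Nat.card Z : ℂ) * (Z.index : ℂ) = (Nat.card Z : ℂ) * (d : ℂ) ^ 2 := by
      rw [hnorm]; ring
    exact (mul_left_cancel₀ hZ0 h2).symm
  refine ⟨χ, d, ?_, ?_⟩
  · funext g
    by_cases hg : g ∈ Z
    · have h1 := hInd_on ⟨g, hg⟩
      have h2 := hresz ⟨g, hg⟩
      simp only at h1 h2
      rw [h1, h2, ← hd2]; ring
    · rw [hInd_off g hg, hvan g hg, mul_zero]
  · exact_mod_cast hd2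

end Cfsg.Agent.Glaub.CT
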