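import Mathlib
import Cfsg.Agent.Lib.Glaub.Cyc
import Cfsg.Agent.Lib.Gallagher
import Cfsg.Agent.H82.CyclicExtChar

/-!
# Fully ramified characters under a cyclic Frobenius action (lead)

The abstract arithmetic lemma: a character `Ψ` of a group `M` with cyclic quotient `M / N`,
of constant norm `1` on the cosets of `N` outside `N`, whose restriction to `N` is `e` times an
invariant irreducible character: then `|M : N|` divides `e - 1` or `e + 1`.
-/

set_option autoImplicit false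
set_option linter.style.haveILetI false

namespace Cfsg.Agent.Glaub.Ram

open Cfsg Cfsg.Agent.H4 Cfsg.Agent.Glaub
open scoped ComplexConjugate Pointwise

universe u

variable {M : Type u} [Group M]

theorem sum_norm_sq_of_sum_mul_conj {ι : Type*} [Fintype ι] (f : ι → ℂ) (c : ℕ)
    (h : ∑ u : ι, f u * conj (f u) = (c : ℂ)) : ∑ u : ι, ‖f u‖ ^ 2 = (c : ℝ) := by
  have h1 : ∀ u : ι, f u * conj (f u) = ((‖f u‖ ^ 2 : ℝ) : ℂ) := by
    intro u
    rw [Complex.mul_conj, Complex.normSq_eq_norm_sq]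
  rw [Finset.sum_congr rfl fun u _ => h1 u, ← Complex.ofReal_sum] at h
  exact_mod_cast h

theorem abstract_dvd [Fintype M] (N : Subgroup M) [hN : N.Normal] [Fintype N]
    (hcyc : IsCyclic (M ⧸ N)) (hm : 2 ≤ N.index)
    {Ψ X : M → ℂ} (hΨ : IsCharacter M Ψ) (hX : IsIrrCharacter M X)
    (hXN : IsIrrCharacter N (fun n : N => X n)) (e : ℕ)
    (h1 : ∀ t : M, t ∉ N → ∑ u : N, Ψ (u * t) * conj (Ψ (u * t)) = (Nat.card N : ℂ))
    (h2 : ∑ u : N, Ψ u * conj (X u) = (Nat.card N : ℂ) * e)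
    (h3 : ∑ u : N, Ψ u * conj (Ψ u) = (Nat.card N : ℂ) * (e : ℂ) ^ 2) :
    (N.index : ℤ) ∣ (e : ℤ) - 1 ∨ (N.index : ℤ) ∣ (e : ℤ) + 1 := by
  classical
  obtain ⟨ℓ, x₀, hker, hpow, hgen, hprim⟩ := Cyc.exists_lin (G := N) hcyc
  set m := N.index with hmdef
  have hcard : Nat.card M = Nat.card N * m := by
    rw [hmdef]; exact (Subgroup.card_mul_index N).symm
  set ω : ℂ := ((ℓ x₀ : ℂˣ) : ℂ) with hω
  have hωm : ω ^ m = 1 := by
    rw [hω, ← Units.val_pow_eq_pow_val, hpow]; rfl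
  have hωprim : ∀ i, 0 < i → i < m → ω ^ i ≠ 1 := by
    intro i hi0 him h
    have h' : ℓ (x₀ ^ i) = 1 := by
      rw [map_pow]
      exact Units.ext (by rw [Units.val_pow_eq_pow_val]; exact h)
    have h'' := hprim i ((hker _).mp h')
    exact absurd (Nat.le_of_dvd hi0 h'') (by omega)
  have hmpos : 0 < m := by omega
  have hN0 : (Nat.card N : ℂ) ≠ 0 := by
    have : 0 < Nat.card N := Nat.card_pos
    exact_mod_cast this.ne'
  -- the multiplicities
  have hchar : ∀ i : ℕ, IsIrrCharacter M (fun x => ((ℓ x : ℂˣ) : ℂ) ^ i * X x) :=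
    fun i => twist_irr ℓ i hX
  have hnat : ∀ i : ℕ, ∃ k : ℕ, classInner Ψ (fun x => ((ℓ x : ℂˣ) : ℂ) ^ i * X x) = k :=
    fun i => classInner_isCharacter_nat hΨ (isCharacter_of_isIrrCharacter (hchar i))
  choose a ha using hnat
  have hpowk : ∀ k i : ℕ, ((ℓ (x₀ ^ k) : ℂˣ) : ℂ) ^ i = ω ^ (i * k) := by
    intro k i
    rw [map_pow, Units.val_pow_eq_pow_val, ← pow_mul, mul_comm k i]
  have hci : ∀ k : ℕ, ∑ u : N, Ψ (u * x₀ ^ k) * conj (X (u * x₀ ^ k)) =
      (Nat.card N : ℂ) * ∑ i ∈ Finset.range m, (((a i : ℕ) : ℤ) : ℂ) * ω ^ (i * k) := by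
    intro k
    rw [Cyc.coset_inner m ℓ hker hpow hcard Ψ X (x₀ ^ k)]
    congr 1
    refine Finset.sum_congr rfl fun i _ => ?_
    rw [ha i, hpowk]
    push_cast; ring
  have hsum : ∑ i ∈ Finset.range m, ((a i : ℕ) : ℤ) = e := by
    have h := hci 0
    simp only [pow_zero, mul_one, mul_zero] at h
    rw [h2] at h
    have h' := mul_left_cancel₀ hN0 h
    exact_mod_cast h'.symm
  have hle : ∀ k, 0 < k → k < m →
      ‖∑ i ∈ Finset.range m, (((a i : ℕ) : ℤ) : ℂ) * ω ^ (i * k)‖ ≤ 1 := by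
    intro k hk0 hkm
    have hxk : x₀ ^ k ∉ N := fun h => absurd (Nat.le_of_dvd hk0 (hprim k h)) (by omega)
    have hA := sum_norm_sq_of_sum_mul_conj (fun u : N => Ψ (u * x₀ ^ k)) _ (h1 (x₀ ^ k) hxk)
    have hB := sum_norm_sq_of_sum_mul_conj (fun u : N => X (u * x₀ ^ k)) _
      (Cyc.coset_norm m ℓ hker hpow hcard hX hXN (x₀ ^ k))
    have hC := hci k
    have hcs : ‖∑ u : N, Ψ (u * x₀ ^ k) * conj (X (u * x₀ ^ k))‖ ^ 2 ≤
        (∑ u : N, ‖Ψ (u * x₀ ^ k)‖ ^ 2) * (∑ u : N, ‖X (u * x₀ ^ k)‖ ^ 2) := by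
      have hn : ‖∑ u : N, Ψ (u * x₀ ^ k) * conj (X (u * x₀ ^ k))‖ ≤
          ∑ u : N, ‖Ψ (u * x₀ ^ k)‖ * ‖X (u * x₀ ^ k)‖ := by
        refine (norm_sum_le _ _).trans (le_of_eq ?_)
        refine Finset.sum_congr rfl fun u _ => ?_
        rw [norm_mul, RCLike.norm_conj]
      calc ‖∑ u : N, Ψ (u * x₀ ^ k) * conj (X (u * x₀ ^ k))‖ ^ 2
          ≤ (∑ u : N, ‖Ψ (u * x₀ ^ k)‖ * ‖X (u * x₀ ^ k)‖) ^ 2 :=
            pow_le_pow_left₀ (norm_nonneg _) hn 2
        _ ≤ _ := Finset.sum_mul_sq_le_sq_mul_sq _ _ _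
    rw [hA, hB, hC, norm_mul, mul_pow] at hcs
    have hNr : (0 : ℝ) < (Nat.card N : ℝ) := by
      have : 0 < Nat.card N := Nat.card_pos
      exact_mod_cast this
    have hnN : ‖(Nat.card N : ℂ)‖ = (Nat.card N : ℝ) := by
      rw [Complex.norm_natCast]
    rw [hnN] at hcs
    set S := ‖∑ i ∈ Finset.range m, (((a i : ℕ) : ℤ) : ℂ) * ω ^ (i * k)‖ with hS
    have hS0 : 0 ≤ S := norm_nonneg _
    have h5 : S ^ 2 ≤ 1 := by
      have h6 : (Nat.card N : ℝ) ^ 2 * S ^ 2 ≤ (Nat.card N : ℝ) ^ 2 * 1 := by nlinarith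
      exact le_of_mul_le_mul_left h6 (by positivity)
    nlinarith
  obtain ⟨j₁, hj₁, t, ht, hall⟩ := Cyc.root_lattice m hmpos ω hωm hωprim (fun i => ((a i : ℕ) : ℤ)) hle
  have he : (e : ℤ) = (m : ℤ) * ((a j₁ : ℤ) + t) - t := by
    rw [← hsum, ← Finset.add_sum_erase (Finset.range m) _ hj₁]
    have h4 : ∑ x ∈ (Finset.range m).erase j₁, ((a x : ℕ) : ℤ) =
        ∑ _x ∈ (Finset.range m).erase j₁, ((a j₁ : ℤ) + t) := by
      refine Finset.sum_congr rfl fun j hj => ?_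
      exact hall j (Finset.mem_of_mem_erase hj) (Finset.ne_of_mem_erase hj)
    rw [h4, Finset.sum_const, Finset.card_erase_of_mem hj₁, Finset.card_range, nsmul_eq_mul,
      Nat.cast_sub hmpos]
    push_cast; ring
  rcases ht with rfl | rfl | rfl
  · -- all multiplicities equal: impossible
    exfalso
    obtain ⟨n0, hn0⟩ := classInner_isCharacter_nat hΨ hΨ
    have hcc : ∀ k : ℕ, ∑ u : N, Ψ (u * x₀ ^ k) * conj (Ψ (u * x₀ ^ k)) =
        (Nat.card N : ℂ) * ∑ i ∈ Finset.range m,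
          classInner Ψ (fun x => ((ℓ x : ℂˣ) : ℂ) ^ i * Ψ x) * ω ^ (i * k) := by
      intro k
      rw [Cyc.coset_inner m ℓ hker hpow hcard Ψ Ψ (x₀ ^ k)]
      congr 1
      refine Finset.sum_congr rfl fun i _ => ?_
      rw [hpowk]; ring
    have hL : ∑ k ∈ Finset.range m, ∑ u : N, Ψ (u * x₀ ^ k) * conj (Ψ (u * x₀ ^ k)) =
        (Nat.card N : ℂ) * ((e : ℂ) ^ 2 + (m - 1)) := by
      have hmem : 0 ∈ Finset.range m := Finset.mem_range.mpr hmpos
      rw [← Finset.add_sum_erase (Finset.range m) _ hmem]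
      have h5 : ∀ k ∈ (Finset.range m).erase 0,
          ∑ u : N, Ψ (u * x₀ ^ k) * conj (Ψ (u * x₀ ^ k)) = (Nat.card N : ℂ) := by
        intro k hk
        have hk0 : 0 < k := Nat.pos_of_ne_zero (Finset.ne_of_mem_erase hk)
        have hkm : k < m := Finset.mem_range.mp (Finset.mem_of_mem_erase hk)
        exact h1 _ fun h => absurd (Nat.le_of_dvd hk0 (hprim k h)) (by omega)
      rw [Finset.sum_congr rfl h5, Finset.sum_const, Finset.card_erase_of_mem hmem,
        Finset.card_range, nsmul_eq_mul, Nat.cast_sub hmpos]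
      simp only [pow_zero, mul_one]
      rw [h3]
      push_cast; ring
    have hR : ∑ k ∈ Finset.range m, ∑ u : N, Ψ (u * x₀ ^ k) * conj (Ψ (u * x₀ ^ k)) =
        (Nat.card N : ℂ) * ((m : ℂ) * n0) := by
      rw [Finset.sum_congr rfl fun k _ => hcc k, ← Finset.mul_sum, Finset.sum_comm]
      congr 1
      have h6 : ∀ i ∈ Finset.range m, ∑ k ∈ Finset.range m,
          classInner Ψ (fun x => ((ℓ x : ℂˣ) : ℂ) ^ i * Ψ x) * ω ^ (i * k) =
          if i = 0 then classInner Ψ (fun x => ((ℓ x : ℂˣ) : ℂ) ^ i * Ψ x) * m else 0 := by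
        intro i hi
        have h7 := Cyc.sum_root_pow m ω hωm hωprim i 0 (Finset.mem_range.mp hi) hmpos
        simp only [zero_mul, pow_zero, map_one, mul_one] at h7
        rw [← Finset.mul_sum, h7]
        split_ifs <;> simp
      rw [Finset.sum_congr rfl h6, Finset.sum_ite_eq' , if_pos (Finset.mem_range.mpr hmpos)]
      simp only [pow_zero, one_mul]
      rw [show (fun x => Ψ x) = Ψ from rfl, hn0]
      ring
    have h8 : ((e : ℂ) ^ 2 + (m - 1)) = (m : ℂ) * n0 := by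
      have := hL.symm.trans hR
      exact mul_left_cancel₀ hN0 this
    have h9 : ((e : ℤ) ^ 2 + (m - 1)) = (m : ℤ) * n0 := by exact_mod_cast h8
    rw [add_zero, sub_zero] at he
    have h10 : (m : ℤ) ∣ 1 := by
      refine ⟨(m : ℤ) * (a j₁ : ℤ) ^ 2 + 1 - (n0 : ℤ), ?_⟩
      rw [he] at h9
      linear_combination (-1 : ℤ) * h9
    have h11 := Int.eq_one_of_dvd_one (by positivity) h10
    have : m = 1 := by exact_mod_cast h11
    omega
  · right
    exact ⟨(a j₁ : ℤ) + 1, by rw [he]; ring⟩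
  · left
    exact ⟨(a j₁ : ℤ) + -1, by rw [he]; ring⟩

section Frob

variable {Γ : Type u} [Group Γ]

/-- Frobenius counting: on a coset `G x` of the Frobenius kernel outside the kernel, the sum of a
class function equals `|G : N|` times its sum on the coset `N x`. -/
theorem frob_count [Fintype Γ] (G N : Subgroup Γ) [hG : G.Normal]
    [hN : N.Normal] [Fintype G] [Fintype N] (hNG : N ≤ G)
    (hfrob : ∀ x : Γ, x ∉ G → ∀ g : Γ, g ∈ G → x * g * x⁻¹ * g⁻¹ ∈ N → g ∈ N)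
    (F : Γ → ℂ) (hF : ∀ g y : Γ, F (g * y * g⁻¹) = F y) (x : Γ) (hx : x ∉ G) :
    (Nat.card N : ℂ) * ∑ u : G, F (u * x) = (Nat.card G : ℂ) * ∑ n : N, F (n * x) := by
  classical
  set SG : Finset Γ := Finset.univ.filter (· ∈ G) with hSG
  set SN : Finset Γ := Finset.univ.filter (· ∈ N) with hSN
  have hmG : ∀ y, y ∈ SG ↔ y ∈ G := by simp [hSG]
  have hmN : ∀ y, y ∈ SN ↔ y ∈ N := by simp [hSN]
  have hcG : Nat.card G = SG.card := Nat.subtype_card SG hmG
  have hcN : Nat.card N = SN.card := Nat.subtype_card SN hmN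
  rw [← Finset.sum_subtype SG hmG (fun y => F (y * x)),
    ← Finset.sum_subtype SN hmN (fun y => F (y * x)), hcG, hcN]
  let P : Γ → Γ → Prop := fun u g => g⁻¹ * u * x * g * x⁻¹ ∈ N
  have hi : ∀ (F' : Γ → ℂ), (∀ g y : Γ, F' (g * y * g⁻¹) = F' y) → ∀ g ∈ SG,
      ∑ u ∈ SG, (if P u g then F' (u * x) else 0) = ∑ n ∈ SN, F' (n * x) := by
    intro F' hF' g hg
    rw [← Finset.sum_filter]
    symm
    have hgG := (hmG g).mp hg
    refine Finset.sum_nbij' (fun n => g * n * x * g⁻¹ * x⁻¹) (fun u => g⁻¹ * u * x * g * x⁻¹)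
      ?_ ?_ ?_ ?_ ?_
    · intro n hn
      rw [Finset.mem_filter, hmG]
      have hnN := (hmN n).mp hn
      refine ⟨?_, ?_⟩
      · have h1 : g * n * x * g⁻¹ * x⁻¹ = (g * n) * (x * g⁻¹ * x⁻¹) := by group
        rw [h1]
        exact G.mul_mem (G.mul_mem hgG (hNG hnN)) (hG.conj_mem _ (G.inv_mem hgG) x)
      · show g⁻¹ * (g * n * x * g⁻¹ * x⁻¹) * x * g * x⁻¹ ∈ N
        have h1 : g⁻¹ * (g * n * x * g⁻¹ * x⁻¹) * x * g * x⁻¹ = n := by group
        rw [h1]; exact hnN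
    · intro u hu
      rw [Finset.mem_filter] at hu
      exact (hmN _).mpr hu.2
    · intro n _; group
    · intro u _; group
    · intro n _
      have h1 : g * n * x * g⁻¹ * x⁻¹ * x = g * (n * x) * g⁻¹ := by group
      rw [h1, hF']
  have hii : ∀ u ∈ SG, (SG.filter (P u)).card ≤ SN.card := by
    intro u _
    rcases (SG.filter (P u)).eq_empty_or_nonempty with h0 | ⟨g₀, hg₀⟩
    · rw [h0]; simp
    · rw [Finset.mem_filter] at hg₀
      refine Finset.card_le_card_of_injOn (fun g => g₀⁻¹ * g) ?_ ?_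
      · intro g hg
        rw [Finset.mem_coe, Finset.mem_filter] at hg
        rw [Finset.mem_coe, hmN]
        have hgG := (hmG g).mp hg.1
        have hg0G := (hmG g₀).mp hg₀.1
        apply hfrob x hx _ (G.mul_mem (G.inv_mem hg0G) hgG)
        have h1 : x * (g₀⁻¹ * g) * x⁻¹ * (g₀⁻¹ * g)⁻¹ = (g₀⁻¹ * u * x * g₀ * x⁻¹)⁻¹ *
            ((g₀⁻¹ * g) * (g⁻¹ * u * x * g * x⁻¹) * (g₀⁻¹ * g)⁻¹) := by group
        rw [h1]
        exact N.mul_mem (N.inv_mem hg₀.2) (hN.conj_mem _ hg.2 _)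
      · intro g _ g' _ h
        exact mul_left_cancel h
  have hiii : ∑ u ∈ SG, (SG.filter (P u)).card = ∑ _u ∈ SG, SN.card := by
    have h1 : ∀ u ∈ SG, ((SG.filter (P u)).card : ℂ) = ∑ g ∈ SG, if P u g then (1 : ℂ) else 0 := by
      intro u _
      rw [Finset.card_filter]
      push_cast
      rfl
    have h2 : (((∑ u ∈ SG, (SG.filter (P u)).card : ℕ)) : ℂ) = ((∑ _u ∈ SG, SN.card : ℕ) : ℂ) := by
      push_cast
      rw [Finset.sum_congr rfl h1, Finset.sum_comm]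
      have h3 := fun g hg => hi (fun _ => 1) (fun _ _ => rfl) g hg
      rw [Finset.sum_congr rfl h3]
      simp
    exact_mod_cast h2
  have hiv : ∀ u ∈ SG, (SG.filter (P u)).card = SN.card :=
    (Finset.sum_eq_sum_iff_of_le hii).mp hiii
  have hT1 : ∑ u ∈ SG, ∑ g ∈ SG, (if P u g then F (u * x) else 0) =
      (SN.card : ℂ) * ∑ u ∈ SG, F (u * x) := by
    rw [Finset.mul_sum]
    refine Finset.sum_congr rfl fun u hu => ?_
    rw [← Finset.sum_filter, Finset.sum_const, hiv u hu, nsmul_eq_mul]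
  have hT2 : ∑ u ∈ SG, ∑ g ∈ SG, (if P u g then F (u * x) else 0) =
      (SG.card : ℂ) * ∑ n ∈ SN, F (n * x) := by
    rw [Finset.sum_comm, Finset.sum_congr rfl fun g hg => hi F hF g hg, Finset.sum_const,
      nsmul_eq_mul]
  rw [← hT1, hT2]

/-- The function induced to `G` from a `Γ`-invariant function on `N` is `Γ`-invariant. -/
theorem indFun_conj_invariant (G N : Subgroup Γ) [hG : G.Normal] [hN : N.Normal] [Fintype G]
    (θ : N → ℂ) (hinv : ∀ (x : Γ) (n : N), θ ⟨x * n * x⁻¹, hN.conj_mem n n.2 x⟩ = θ n)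
    (x : Γ) (g : G) :
    indFun (N.subgroupOf G) (fun n : N.subgroupOf G => θ ⟨(n : G), n.2⟩)
        ⟨x * g * x⁻¹, hG.conj_mem g g.2 x⟩ =
      indFun (N.subgroupOf G) (fun n : N.subgroupOf G => θ ⟨(n : G), n.2⟩) g := by
  classical
  rw [indFun_apply, indFun_apply]
  congr 1
  let c : G ≃ G := (MulAut.conjNormal x : G ≃* G).toEquiv
  rw [← Equiv.sum_comp c]
  refine Finset.sum_congr rfl fun y _ => ?_
  have hc : (c y)⁻¹ * (⟨x * g * x⁻¹, hG.conj_mem g g.2 x⟩ : G) * c y =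
      (MulAut.conjNormal x : G ≃* G) (y⁻¹ * g * y) := by
    apply Subtype.ext
    simp only [c, MulEquiv.toEquiv_eq_coe, EquivLike.coe_coe, Subgroup.coe_mul,
      Subgroup.coe_inv, MulAut.conjNormal_apply]
    group
  rw [hc]
  by_cases hz : y⁻¹ * g * y ∈ N.subgroupOf G
  · have hz' : (MulAut.conjNormal x : G ≃* G) (y⁻¹ * g * y) ∈ N.subgroupOf G := by
      rw [Subgroup.mem_subgroupOf, MulAut.conjNormal_apply]
      exact hN.conj_mem _ (Subgroup.mem_subgroupOf.mp hz) x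
    rw [extendByZero_of_mem _ _ hz, extendByZero_of_mem _ _ hz']
    exact hinv x ⟨_, Subgroup.mem_subgroupOf.mp hz⟩
  · have hz' : (MulAut.conjNormal x : G ≃* G) (y⁻¹ * g * y) ∉ N.subgroupOf G := by
      intro h
      apply hz
      rw [Subgroup.mem_subgroupOf, MulAut.conjNormal_apply] at h
      rw [Subgroup.mem_subgroupOf]
      have h2 := hN.conj_mem _ h x⁻¹
      have h3 : x⁻¹ * (x * ((y⁻¹ * g * y : G) : Γ) * x⁻¹) * x⁻¹⁻¹ = ((y⁻¹ * g * y : G) : Γ) := by
        group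
      rw [h3] at h2
      exact h2
    rw [extendByZero_of_not_mem _ _ hz, extendByZero_of_not_mem _ _ hz']

theorem sum_subgroupOf {N K : Subgroup Γ} (h : N ≤ K) [Fintype N]
    [Fintype (N.subgroupOf K)] (f : N → ℂ) :
    ∑ u : N.subgroupOf K, f ⟨((u : K) : Γ), u.2⟩ = ∑ n : N, f n :=
  Fintype.sum_equiv (Subgroup.subgroupOfEquivOfLe h).toEquiv _ _ (fun _ => rfl)

end Frob

section Main

variable {Γ : Type u} [Group Γ]

/-- Isaacs-style: a fully ramified invariant character under a cyclic Frobenius action. -/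
theorem main [Fintype Γ] (G N : Subgroup Γ) [hG : G.Normal] [hN : N.Normal] [Fintype G]
    [Fintype N] (hNG : N ≤ G) (hGlt : G ≠ ⊤) (hcyc : IsCyclic (Γ ⧸ G))
    (hfrob : ∀ x : Γ, x ∉ G → ∀ g : Γ, g ∈ G → x * g * x⁻¹ * g⁻¹ ∈ N → g ∈ N)
    (θ : IrrCharacter N)
    (hinv : ∀ (x : Γ) (n : N), (θ : N → ℂ) ⟨x * n * x⁻¹, hN.conj_mem n n.2 x⟩ = (θ : N → ℂ) n)
    (χ : IrrCharacter G) (e : ℕ)
    (hram : indFun (N.subgroupOf G) (fun n : N.subgroupOf G => (θ : N → ℂ) ⟨(n : G), n.2⟩) =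
      fun g => (e : ℂ) * (χ : G → ℂ) g) :
    (G.index : ℤ) ∣ (e : ℤ) - 1 ∨ (G.index : ℤ) ∣ (e : ℤ) + 1 := by
  classical
  set H : Subgroup G := N.subgroupOf G with hH
  set θ'' : H → ℂ := fun n => θ.1 ⟨(n : G), n.2⟩ with hθ''
  haveI : Fintype H := Fintype.ofFinite H
  have hθ''irr : IsIrrCharacter H θ'' :=
    Clifford.isIrrCharacter_comp_equiv (Subgroup.subgroupOfEquivOfLe hNG) θ.2
  have hinv'' : ∀ g : G, Clifford.conjChar H θ'' g = θ'' := by
    intro g
    funext n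
    exact hinv g ⟨_, n.2⟩
  -- (A) e² = H.index
  have hA : (e : ℂ) ^ 2 = (H.index : ℂ) := by
    have h1 := Clifford.classInner_indFun_self_of_invariant (N := H) hθ''irr hinv''
    rw [hram] at h1
    have h2 : (fun g => (e : ℂ) * χ.1 g) = (e : ℂ) • χ.1 := rfl
    rw [h2, classInner_smul_left, classInner_smul_right, irr_inner_self, Complex.conj_natCast]
      at h1
    rw [← h1]; ring
  have hindex : H.index ≠ 0 := Subgroup.index_ne_zero_of_finite
  have he0 : (e : ℂ) ≠ 0 := by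
    intro h0
    rw [h0] at hA
    apply hindex
    have : (H.index : ℂ) = 0 := by rw [← hA]; ring
    exact_mod_cast this
  have hH0 : (Nat.card H : ℂ) ≠ 0 := by
    have : 0 < Nat.card H := Nat.card_pos
    exact_mod_cast this.ne'
  -- χ|H = e θ''
  have hres : ∀ h : H, χ.1 h = (e : ℂ) * θ'' h := by
    intro h
    have h1 := Clifford.indFun_res_apply H θ'' h
    rw [hram] at h1
    simp only [hinv'', Finset.sum_const, Finset.card_univ, nsmul_eq_mul] at h1
    have hcard : (Nat.card H : ℂ) * (H.index : ℂ) = (Fintype.card G : ℂ) := by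
      rw [← Nat.card_eq_fintype_card]
      exact_mod_cast Subgroup.card_mul_index H
    rw [← hcard, ← hA] at h1
    have h2 : (e : ℂ) * χ.1 h = (e : ℂ) * ((e : ℂ) * θ'' h) := by
      rw [h1]; field_simp
    exact mul_left_cancel₀ he0 h2
  -- Γ-invariance of χ
  have hχinv : ∀ (x : Γ) (g : G), χ.1 ⟨x * g * x⁻¹, hG.conj_mem g g.2 x⟩ = χ.1 g := by
    intro x g
    have h1 := indFun_conj_invariant G N θ.1 hinv x g
    rw [hram] at h1
    exact mul_left_cancel₀ he0 h1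
  obtain ⟨ψ, hψ, hψχ⟩ := Cfsg.Agent.H82.exists_extension_of_cyclic G hcyc χ.1 χ.2 hχinv
  have hψN : ∀ n : N, ψ n = (e : ℂ) * θ.1 n := by
    intro n
    have h1 := hres ⟨⟨n, hNG n.2⟩, n.2⟩
    rw [← hψχ] at h1
    exact h1
  have hN0 : (Nat.card N : ℂ) ≠ 0 := by
    have : 0 < Nat.card N := Nat.card_pos
    exact_mod_cast this.ne'
  have hG0 : (Nat.card G : ℂ) ≠ 0 := by
    have : 0 < Nat.card G := Nat.card_pos
    exact_mod_cast this.ne'
  have hθθ : ∑ n : N, θ.1 n * conj (θ.1 n) = (Nat.card N : ℂ) := by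
    have h1 := irr_inner_self θ
    unfold classInner at h1
    rw [inv_mul_eq_one₀ hN0] at h1
    exact h1.symm
  have hS2 : ∑ n : N, ψ n * conj (θ.1 n) = (Nat.card N : ℂ) * e := by
    simp only [hψN, mul_assoc]
    rw [← Finset.mul_sum, hθθ]; ring
  have hS3 : ∑ n : N, ψ n * conj (ψ n) = (Nat.card N : ℂ) * (e : ℂ) ^ 2 := by
    have h1 : ∀ n : N, ψ n * conj (ψ n) = (e : ℂ) ^ 2 * (θ.1 n * conj (θ.1 n)) := by
      intro n
      rw [hψN, map_mul, Complex.conj_natCast]; ring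
    simp only [h1]
    rw [← Finset.mul_sum, hθθ]; ring
  -- coset norm in Γ
  obtain ⟨ℓ, x₀, hker, hpow, hgen, hprim⟩ := Cyc.exists_lin (G := G) hcyc
  have hcard : Nat.card Γ = Nat.card G * G.index := (Subgroup.card_mul_index G).symm
  have hψG : IsIrrCharacter G (fun g : G => ψ g) := by
    have h1 : (fun g : G => ψ g) = χ.1 := funext hψχ
    rw [h1]; exact χ.2
  have hS1 : ∀ t : Γ, t ∉ G → ∑ n : N, ψ (n * t) * conj (ψ (n * t)) = (Nat.card N : ℂ) := by
    intro t ht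
    have h1 := Cyc.coset_norm G.index ℓ hker hpow hcard hψ hψG t
    have h2 := frob_count G N hNG hfrob (fun y => ψ y * conj (ψ y)) (by
      intro g y
      rw [isClassFunction_of_isCharacter (isCharacter_of_isIrrCharacter hψ) y g]) t ht
    rw [h1] at h2
    have h3 : (Nat.card G : ℂ) * ∑ n : N, ψ (n * t) * conj (ψ (n * t)) =
        (Nat.card G : ℂ) * (Nat.card N : ℂ) := by rw [← h2]; ring
    exact mul_left_cancel₀ hG0 h3
  -- the complement-like subgroup M
  have hx₀ : x₀ ∉ G := by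
    intro hx
    apply hGlt
    rw [eq_top_iff]
    intro y _
    obtain ⟨k, hk⟩ := hgen y
    have h1 : y = y * (x₀ ^ k)⁻¹ * x₀ ^ k := by group
    rw [h1]
    exact G.mul_mem hk (G.pow_mem hx k)
  set M : Subgroup Γ := N ⊔ Subgroup.zpowers x₀ with hM
  have hNM : N ≤ M := le_sup_left
  have hMset : (M : Set Γ) = (N : Set Γ) * (Subgroup.zpowers x₀ : Set Γ) :=
    Subgroup.normal_mul N _
  have hMG : M ⊓ G = N := by
    apply le_antisymm
    · intro y hy
      have hyM : y ∈ M := (Subgroup.mem_inf.mp hy).1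
      have hyG : y ∈ G := (Subgroup.mem_inf.mp hy).2
      rw [← SetLike.mem_coe, hMset] at hyM
      obtain ⟨n, hn, z, hz, rfl⟩ := hyM
      have hzG : z ∈ G := by
        have h1 : z = n⁻¹ * (n * z) := by group
        rw [h1]
        exact G.mul_mem (G.inv_mem (hNG hn)) hyG
      have hzN : z ∈ N := by
        apply hfrob x₀ hx₀ z hzG
        obtain ⟨j, rfl⟩ := Subgroup.mem_zpowers_iff.mp hz
        have h1 : x₀ * x₀ ^ j * x₀⁻¹ * (x₀ ^ j)⁻¹ = 1 := by group
        rw [h1]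
        exact N.one_mem
      exact N.mul_mem hn hzN
    · exact le_inf hNM hNG
  have hGM : G ⊔ M = ⊤ := by
    rw [eq_top_iff]
    intro y _
    obtain ⟨k, hk⟩ := hgen y
    have h1 : y = y * (x₀ ^ k)⁻¹ * x₀ ^ k := by group
    rw [h1]
    exact Subgroup.mul_mem _ (Subgroup.mem_sup_left hk) (Subgroup.mem_sup_right
      (Subgroup.mem_sup_right (Subgroup.pow_mem _ (Subgroup.mem_zpowers x₀) k)))
  set N' : Subgroup M := N.subgroupOf M with hN'
  have hidx : N'.index = G.index := by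
    have h1 : N'.index = N.relIndex M := rfl
    rw [h1, ← hMG, inf_comm, Subgroup.inf_relIndex_right, ← Subgroup.relIndex_sup_left, hGM,
      Subgroup.relIndex_top_right]
  have hcycM : IsCyclic (M ⧸ N') := by
    let f : Subgroup.zpowers x₀ →* M ⧸ N' :=
      (QuotientGroup.mk' N').comp (Subgroup.inclusion le_sup_right)
    refine isCyclic_of_surjective f ?_
    intro q
    obtain ⟨⟨y, hy⟩, rfl⟩ := QuotientGroup.mk_surjective q
    have hy' := hy
    rw [← SetLike.mem_coe, hMset] at hy'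
    obtain ⟨n, hn, z, hz, rfl⟩ := hy'
    refine ⟨⟨z, hz⟩, ?_⟩
    show (QuotientGroup.mk (Subgroup.inclusion le_sup_right ⟨z, hz⟩) : M ⧸ N') =
      QuotientGroup.mk ⟨n * z, hy⟩
    rw [QuotientGroup.eq, hN', Subgroup.mem_subgroupOf]
    have h1 : (((Subgroup.inclusion (le_sup_right : Subgroup.zpowers x₀ ≤ M) ⟨z, hz⟩)⁻¹ *
        (⟨n * z, hy⟩ : M) : M) : Γ) = z⁻¹ * n * z⁻¹⁻¹ := by
      simp only [Subgroup.coe_mul, Subgroup.coe_inv, Subgroup.coe_inclusion]
      group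
    rw [h1]
    exact hN.conj_mem n hn z⁻¹
  haveI : Fintype M := Fintype.ofFinite M
  haveI : Fintype N' := Fintype.ofFinite N'
  set ϑ' : N' → ℂ := fun n => θ.1 ⟨((n : M) : Γ), n.2⟩ with hϑ'def
  have hϑ' : IsIrrCharacter N' ϑ' :=
    Clifford.isIrrCharacter_comp_equiv (Subgroup.subgroupOfEquivOfLe hNM) θ.2
  obtain ⟨X, hX, hXN⟩ := Cfsg.Agent.H82.exists_extension_of_cyclic N' hcycM ϑ' hϑ'
    (fun g n => hinv g ⟨_, n.2⟩)
  have hXN' : IsIrrCharacter N' (fun n : N' => X n) := by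
    rw [show (fun n : N' => X n) = ϑ' from funext hXN]; exact hϑ'
  have hΨ : IsCharacter M (fun y : M => ψ y) :=
    isCharacter_comp M.subtype (isCharacter_of_isIrrCharacter hψ)
  have hcN : Nat.card N' = Nat.card N :=
    Nat.card_congr (Subgroup.subgroupOfEquivOfLe hNM).toEquiv
  have h2idx : 2 ≤ N'.index := by
    rw [hidx]
    have h1 : G.index ≠ 1 := fun h => hGlt (Subgroup.index_eq_one.mp h)
    have h0 : G.index ≠ 0 := Subgroup.index_ne_zero_of_finite
    omega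
  have key := abstract_dvd N' hcycM h2idx hΨ hX hXN' e ?_ ?_ ?_
  · rw [hidx] at key; exact key
  · intro t ht
    have htG : (t : Γ) ∉ G := fun h => ht (by
      rw [hN', Subgroup.mem_subgroupOf, ← hMG]; exact ⟨t.2, h⟩)
    rw [hcN, ← hS1 (t : Γ) htG]
    exact sum_subgroupOf hNM (fun y : N => ψ (y * t) * conj (ψ (y * t)))
  · rw [hcN, ← hS2]
    simp only [hXN]
    exact sum_subgroupOf hNM (fun y : N => ψ y * conj (θ.1 y))
  · rw [hcN, ← hS3]
    exact sum_subgroupOf hNM (fun y : N => ψ y * conj (ψ y))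

end Main

end Cfsg.Agent.Glaub.Ram
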