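import Mathlib
import Cfsg.Prelude.Def_Transfer
import Cfsg.Agent.Lib.Glaub.Ramified
import Cfsg.Agent.Lib.Glaub.CentralType

/-!
# Cyclic `p'`-groups acting on extraspecial groups with centraliser the centre (lead)

A corollary of the theorem on fully ramified sections under a cyclic Frobenius action.
-/

set_option autoImplicit false
set_option linter.style.haveILetI false

namespace Cfsg.Agent.Glaub.ExtraAct

open Cfsg Cfsg.Agent.H4 Cfsg.Agent.Glaub
open scoped ComplexConjugate Pointwise commutatorElement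

universe u

theorem extraspecial_cyclic {G : Type u} [Group G] [Finite G] {p : ℕ} [hp : Fact p.Prime]
    (P H : Subgroup G) (hP : Cfsg.IsExtraspecial p ↥P) (n : ℕ)
    (hn : Nat.card P = p ^ (2 * n + 1)) (hH : IsCyclic H) (hcop : (Nat.card H).Coprime p)
    (hHP : H ≤ Subgroup.normalizer (P : Set G))
    (hfix : ∀ x ∈ H, x ≠ 1 →
      P ⊓ Subgroup.centralizer {x} = (Subgroup.center ↥P).map P.subtype) :
    Nat.card H ∣ p ^ n + 1 ∨ Nat.card H ∣ p ^ n - 1 := by
  classical
  obtain ⟨⟨hpg, hfrat, hcomm⟩, hzcard⟩ := hP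
  set Zc : Subgroup G := (Subgroup.center ↥P).map P.subtype with hZc
  have hmemZc : ∀ z : G, z ∈ Zc ↔ ∃ hz : z ∈ P, (⟨z, hz⟩ : P) ∈ Subgroup.center P := by
    intro z
    rw [hZc, Subgroup.mem_map]
    constructor
    · rintro ⟨⟨w, hw⟩, hwc, rfl⟩
      exact ⟨hw, hwc⟩
    · rintro ⟨hz, hc⟩
      exact ⟨⟨z, hz⟩, hc, rfl⟩
  have hZcP : Zc ≤ P := fun z hz => ((hmemZc z).mp hz).1
  have hZcomm : ∀ z ∈ Zc, ∀ u ∈ P, u * z = z * u := by
    intro z hz u hu
    obtain ⟨hzP, hc⟩ := (hmemZc z).mp hz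
    have h1 := Subgroup.mem_center_iff.mp hc ⟨u, hu⟩
    exact congrArg Subtype.val h1
  have hZcard : Nat.card Zc = p := by
    rw [hZc, Subgroup.card_map_of_injective P.subtype_injective, hzcard]
  by_cases hH1 : H = ⊥
  · left
    rw [hH1]
    simp
  -- `H ∩ P = 1`
  have hHP_bot : ∀ h ∈ H, h ∈ P → h = 1 := by
    intro h hh hhP
    have h1 : orderOf h ∣ Nat.card H := by
      have h2 := orderOf_dvd_natCard (⟨h, hh⟩ : H)
      rwa [Subgroup.orderOf_mk] at h2
    obtain ⟨k, hk⟩ := (IsPGroup.iff_orderOf.mp hpg) ⟨h, hhP⟩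
    rw [Subgroup.orderOf_mk] at hk
    have h2 : Nat.Coprime (orderOf h) (orderOf h) := by
      refine Nat.Coprime.coprime_dvd_left h1 ?_
      rw [hk]
      exact Nat.Coprime.pow_right _ hcop
    exact orderOf_eq_one_iff.mp ((Nat.coprime_self _).mp h2)
  have hHZ : ∀ h ∈ H, ∀ z ∈ Zc, h * z = z * h := by
    intro h hh z hz
    by_cases h1 : h = 1
    · rw [h1]; simp
    · have h2 := hfix h hh h1
      have hz' : z ∈ P ⊓ Subgroup.centralizer {h} := by rw [h2]; exact hz
      exact Subgroup.mem_centralizer_iff.mp hz'.2 h (Set.mem_singleton h)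
  set K : Subgroup G := P ⊔ H with hK
  have hPK : P ≤ K := le_sup_left
  have hHK : H ≤ K := le_sup_right
  have hKN : K ≤ Subgroup.normalizer (P : Set G) := sup_le Subgroup.le_normalizer hHP
  have hKcent : K ≤ Subgroup.centralizer (Zc : Set G) := by
    apply sup_le
    · intro u hu
      rw [Subgroup.mem_centralizer_iff]
      intro z hz
      exact (hZcomm z hz u hu).symm
    · intro h hh
      rw [Subgroup.mem_centralizer_iff]
      intro z hz
      exact (hHZ h hh z hz).symm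
  have hKZ : ∀ k ∈ K, ∀ z ∈ Zc, k * z = z * k := by
    intro k hk z hz
    exact (Subgroup.mem_centralizer_iff.mp (hKcent hk) z hz).symm
  have hKset : (K : Set G) = (P : Set G) * (H : Set G) :=
    Subgroup.coe_mul_of_right_le_normalizer_left P H hHP
  have hconjP : ∀ k ∈ K, ∀ u ∈ P, k * u * k⁻¹ ∈ P := by
    intro k hk u hu
    exact (Subgroup.mem_normalizer_iff.mp (hKN hk) u).mp hu
  set G' : Subgroup K := P.subgroupOf K with hG'
  set N' : Subgroup K := Zc.subgroupOf K with hN'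
  haveI hG'n : G'.Normal := (Subgroup.normal_subgroupOf_iff_le_normalizer hPK).mpr hKN
  haveI hN'n : N'.Normal := ⟨fun z hz k => by
    rw [hN', Subgroup.mem_subgroupOf] at hz ⊢
    have h1 : ((k * z * k⁻¹ : K) : G) = z := by
      simp only [Subgroup.coe_mul, Subgroup.coe_inv]
      rw [hKZ k k.2 z hz, mul_inv_cancel_right]
    rw [h1]; exact hz⟩
  have hNG' : N' ≤ G' := fun x hx => hZcP hx
  haveI : Fintype K := Fintype.ofFinite K
  haveI : Fintype G' := Fintype.ofFinite G'
  haveI : Fintype N' := Fintype.ofFinite N'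
  haveI : Fintype (N'.subgroupOf G') := Fintype.ofFinite _
  have hG'top : G' ≠ ⊤ := by
    intro htop
    apply hH1
    rw [eq_bot_iff]
    intro h hh
    have h1 : (⟨h, hHK hh⟩ : K) ∈ G' := by rw [htop]; trivial
    exact Subgroup.mem_bot.mpr (hHP_bot h hh h1)
  -- the quotient `K / G'` is `H`
  let f : H →* K ⧸ G' := (QuotientGroup.mk' G').comp (Subgroup.inclusion hHK)
  have hfsurj : Function.Surjective f := by
    intro q
    obtain ⟨⟨y, hy⟩, rfl⟩ := QuotientGroup.mk_surjective q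
    have hy' := hy
    rw [← SetLike.mem_coe, hKset] at hy'
    obtain ⟨u, hu, h, hh, rfl⟩ := hy'
    have hu : u ∈ P := hu
    have hh : h ∈ H := hh
    refine ⟨⟨h, hh⟩, ?_⟩
    show (QuotientGroup.mk (Subgroup.inclusion hHK ⟨h, hh⟩) : K ⧸ G') =
      QuotientGroup.mk ⟨u * h, hy⟩
    rw [QuotientGroup.eq, hG', Subgroup.mem_subgroupOf]
    have h1 : (((Subgroup.inclusion hHK ⟨h, hh⟩)⁻¹ * (⟨u * h, hy⟩ : K) : K) : G) =
        h⁻¹ * u * h⁻¹⁻¹ := by
      simp only [Subgroup.coe_mul, Subgroup.coe_inv, Subgroup.coe_inclusion]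
      group
    rw [h1]
    exact hconjP h⁻¹ (K.inv_mem (hHK hh)) u hu
  have hfinj : Function.Injective f := by
    intro a b hab
    have h1 : (QuotientGroup.mk (Subgroup.inclusion hHK a) : K ⧸ G') =
        QuotientGroup.mk (Subgroup.inclusion hHK b) := hab
    rw [QuotientGroup.eq, hG', Subgroup.mem_subgroupOf] at h1
    have h2 : (((Subgroup.inclusion hHK a)⁻¹ * Subgroup.inclusion hHK b : K) : G) =
        ((a⁻¹ * b : H) : G) := by
      simp only [Subgroup.coe_mul, Subgroup.coe_inv, Subgroup.coe_inclusion]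
    rw [h2] at h1
    have h3 := hHP_bot _ (a⁻¹ * b).2 h1
    have h4 : a⁻¹ * b = 1 := Subtype.ext h3
    exact inv_mul_eq_one.mp h4
  haveI := hH
  have hcyc : IsCyclic (K ⧸ G') := isCyclic_of_surjective f hfsurj
  have hidx : G'.index = Nat.card H := by
    rw [Subgroup.index, ← Nat.card_congr (Equiv.ofBijective f ⟨hfinj, hfsurj⟩)]
  -- the Frobenius condition
  have hfrob : ∀ x : K, x ∉ G' → ∀ g : K, g ∈ G' → x * g * x⁻¹ * g⁻¹ ∈ N' → g ∈ N' := by
    intro x hx g hg hxg
    rw [hG', Subgroup.mem_subgroupOf] at hx hg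
    rw [hN', Subgroup.mem_subgroupOf] at hxg ⊢
    have hxK := x.2
    rw [← SetLike.mem_coe, hKset] at hxK
    obtain ⟨u, hu, h, hh, hxe0⟩ := hxK
    have hxe : u * h = (x : G) := hxe0
    have hu : u ∈ P := hu
    have hh : h ∈ H := hh
    have hh1 : h ≠ 1 := by
      intro h1
      apply hx
      rw [← hxe, h1, mul_one]
      exact hu
    set gG : G := (g : G) with hgG
    have hg'P : h * gG * h⁻¹ ∈ P := hconjP h (hHK hh) gG hg
    -- the commutator of `u` and `h g h⁻¹` is central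
    have hc1 : u * (h * gG * h⁻¹) * u⁻¹ * (h * gG * h⁻¹)⁻¹ ∈ Zc := by
      rw [hmemZc]
      refine ⟨P.mul_mem (P.mul_mem (P.mul_mem hu hg'P) (P.inv_mem hu)) (P.inv_mem hg'P), ?_⟩
      have h1 : ⁅(⟨u, hu⟩ : P), ⟨h * gG * h⁻¹, hg'P⟩⁆ ∈ commutator P :=
        Subgroup.commutator_mem_commutator (Subgroup.mem_top _) (Subgroup.mem_top _)
      rw [hcomm] at h1
      exact h1
    have hz : h * gG * h⁻¹ * gG⁻¹ ∈ Zc := by
      have h1 : h * gG * h⁻¹ * gG⁻¹ =
          (u * (h * gG * h⁻¹) * u⁻¹ * (h * gG * h⁻¹)⁻¹)⁻¹ * ((x : G) * gG * (x : G)⁻¹ * gG⁻¹) := by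
        rw [← hxe]; group
      rw [h1]
      exact Zc.mul_mem (Zc.inv_mem hc1) (by simpa using hxg)
    set z : G := h * gG * h⁻¹ * gG⁻¹ with hzdef
    have hconj1 : h * gG * h⁻¹ = z * gG := by rw [hzdef]; group
    have hpow : ∀ k : ℕ, h ^ k * gG * (h ^ k)⁻¹ = z ^ k * gG := by
      intro k
      induction k with
      | zero => simp
      | succ k ih =>
        have h1 : h ^ (k + 1) * gG * (h ^ (k + 1))⁻¹ = h * (h ^ k * gG * (h ^ k)⁻¹) * h⁻¹ := by
          rw [pow_succ']; group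
        rw [h1, ih]
        have h2 : h * (z ^ k * gG) * h⁻¹ = (h * z ^ k * h⁻¹) * (h * gG * h⁻¹) := by group
        rw [h2, hconj1, hHZ h hh (z ^ k) (Zc.pow_mem hz k), mul_inv_cancel_right, pow_succ]
        group
    have hzk : z ^ orderOf h = 1 := by
      have h1 := hpow (orderOf h)
      rw [pow_orderOf_eq_one, one_mul, inv_one, mul_one] at h1
      exact (mul_eq_right.mp h1.symm)
    have hzp : z ^ p = 1 := by
      have h1 : (⟨z, hz⟩ : Zc) ^ Nat.card Zc = 1 := pow_card_eq_one'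
      rw [hZcard] at h1
      exact congrArg Subtype.val h1
    have hz1 : z = 1 := by
      have h1 : orderOf z ∣ Nat.gcd (orderOf h) p :=
        Nat.dvd_gcd (orderOf_dvd_of_pow_eq_one hzk) (orderOf_dvd_of_pow_eq_one hzp)
      have h2 : orderOf h ∣ Nat.card H := by
        have h3 := orderOf_dvd_natCard (⟨h, hh⟩ : H)
        rwa [Subgroup.orderOf_mk] at h3
      have h3 : Nat.gcd (orderOf h) p = 1 := Nat.Coprime.coprime_dvd_left h2 hcop
      rw [h3] at h1
      exact orderOf_eq_one_iff.mp (Nat.dvd_one.mp h1)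
    have hcomm' : h * gG = gG * h := by
      have h1 : h * gG * h⁻¹ = gG := by rw [hconj1, hz1, one_mul]
      exact mul_inv_eq_iff_eq_mul.mp h1
    have hgZ : gG ∈ P ⊓ Subgroup.centralizer {h} := by
      refine Subgroup.mem_inf.mpr ⟨hg, ?_⟩
      rw [Subgroup.mem_centralizer_iff]
      intro y hy
      rw [Set.mem_singleton_iff] at hy
      rw [hy]
      exact hcomm'
    rw [hfix h hh hh1] at hgZ
    exact hgZ
  -- a faithful linear character of `N'`
  have hN'card : Nat.card N' = p := by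
    rw [← hZcard]
    exact Nat.card_congr (Subgroup.subgroupOfEquivOfLe (hZcP.trans hPK)).toEquiv
  haveI : IsCyclic N' := isCyclic_of_prime_card (p := p) hN'card
  obtain ⟨ℓ₀, x₀, hker, -, -, -⟩ := Cyc.exists_lin (Γ := N') (G := (⊥ : Subgroup N'))
    (isCyclic_of_surjective (QuotientGroup.mk' ⊥) (QuotientGroup.mk'_surjective ⊥))
  let θ : IrrCharacter N' := ⟨fun z => ((ℓ₀ z : ℂˣ) : ℂ), isIrrCharacter_of_hom ℓ₀⟩
  have hinv : ∀ (x : K) (n : N'),
      (θ : N' → ℂ) ⟨x * n * x⁻¹, hN'n.conj_mem n n.2 x⟩ = (θ : N' → ℂ) n := by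
    intro x n
    have h1 : (⟨x * n * x⁻¹, hN'n.conj_mem n n.2 x⟩ : N') = n := by
      apply Subtype.ext
      apply Subtype.ext
      show (x : G) * ((n : K) : G) * (x : G)⁻¹ = ((n : K) : G)
      have h2 : (x : G) * ((n : K) : G) = ((n : K) : G) * (x : G) :=
        hKZ (x : G) x.2 ((n : K) : G) n.2
      rw [h2, mul_inv_cancel_right]
    rw [h1]
  -- `θ` is fully ramified in `G'`
  obtain ⟨χ, e, hram, he2⟩ := CT.fully_ramified_central (Q := G') (N'.subgroupOf G')
    (by
      intro z hz g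
      apply Subtype.ext
      apply Subtype.ext
      show ((g : K) : G) * ((z : K) : G) = ((z : K) : G) * ((g : K) : G)
      exact hZcomm _ hz _ g.2)
    (ℓ₀.comp (Subgroup.subgroupOfEquivOfLe hNG').toMonoidHom)
    (by
      intro x hx
      have hxP : ((x : K) : G) ∈ P := x.2
      have hxc : (⟨((x : K) : G), hxP⟩ : P) ∉ Subgroup.center P := by
        intro hc
        apply hx
        show ((x : K) : G) ∈ Zc
        rw [hmemZc]
        exact ⟨hxP, hc⟩
      rw [Subgroup.mem_center_iff] at hxc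
      push Not at hxc
      obtain ⟨y₀, hy₀⟩ := hxc
      let y : G' := ⟨⟨(y₀ : G), hPK y₀.2⟩, y₀.2⟩
      have hz : x * y * x⁻¹ * y⁻¹ ∈ N'.subgroupOf G' := by
        show (((x * y * x⁻¹ * y⁻¹ : G') : K) : G) ∈ Zc
        rw [hmemZc]
        refine ⟨(x * y * x⁻¹ * y⁻¹ : G').2, ?_⟩
        have h1 : ⁅(⟨((x : K) : G), hxP⟩ : P), y₀⁆ ∈ commutator P :=
          Subgroup.commutator_mem_commutator (Subgroup.mem_top _) (Subgroup.mem_top _)
        rw [hcomm] at h1
        exact h1
      refine ⟨y, hz, ?_⟩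
      intro h1
      have h2 : (Subgroup.subgroupOfEquivOfLe hNG') ⟨x * y * x⁻¹ * y⁻¹, hz⟩ ∈
          (⊥ : Subgroup N') := (hker _).mp h1
      rw [Subgroup.mem_bot] at h2
      have h3 : (((x * y * x⁻¹ * y⁻¹ : G') : K) : G) = 1 := by
        have h4 := congrArg (fun w : N' => ((w : K) : G)) h2
        exact h4
      apply hy₀
      apply Subtype.ext
      have h5 : ((x : K) : G) * (y₀ : G) * ((x : K) : G)⁻¹ * (y₀ : G)⁻¹ = 1 := h3
      have h6 : ((x : K) : G) * (y₀ : G) = (y₀ : G) * ((x : K) : G) := by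
        have h7 := mul_inv_eq_one.mp h5
        exact mul_inv_eq_iff_eq_mul.mp h7
      exact h6.symm)
  -- the degree
  have he : e = p ^ n := by
    have hcardG' : Nat.card G' = p ^ (2 * n + 1) := by
      rw [← hn]
      exact Nat.card_congr (Subgroup.subgroupOfEquivOfLe hPK).toEquiv
    have hcardZ : Nat.card (N'.subgroupOf G') = p := by
      rw [← hN'card]
      exact Nat.card_congr (Subgroup.subgroupOfEquivOfLe hNG').toEquiv
    have h1 := Subgroup.card_mul_index (N'.subgroupOf G')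
    rw [hcardZ, hcardG', ← he2, pow_succ, mul_comm] at h1
    have h2 : e ^ 2 = p ^ (2 * n) := Nat.eq_of_mul_eq_mul_right hp.out.pos h1
    have h3 : e ^ 2 = (p ^ n) ^ 2 := by rw [h2, ← pow_mul, mul_comm]
    exact Nat.pow_left_injective (by norm_num : 2 ≠ 0) h3
  have key := Ram.main G' N' hNG' hG'top hcyc hfrob θ hinv χ e hram
  rw [hidx, he] at key
  have hpos : 1 ≤ p ^ n := Nat.one_le_pow _ _ hp.out.pos
  rcases key with h | h
  · right
    have h1 : ((p ^ n - 1 : ℕ) : ℤ) = ((p ^ n : ℕ) : ℤ) - 1 := by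
      rw [Nat.cast_sub hpos]; simp
    exact Int.natCast_dvd_natCast.mp (by rw [h1]; exact h)
  · left
    exact Int.natCast_dvd_natCast.mp (by push_cast; exact h)

end Cfsg.Agent.Glaub.ExtraAct
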