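import Mathlib
import Cfsg.Agent.Lib.Glaub.Semi

/-!
# The Glauberman correspondence, cyclic case (lead): semiregular action off the fixed points
-/

set_option autoImplicit false
set_option linter.style.haveILetI false

namespace Cfsg.Agent.Glaub

open Cfsg Cfsg.Agent.H4
open scoped ComplexConjugate

universe u

variable {Γ : Type u} [Group Γ] {G S : Subgroup Γ} {s : Γ}

namespace Setup

local notation "𝒞" => (G ⊓ Subgroup.centralizer (S : Set Γ) : Subgroup Γ)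

variable [hG : G.Normal]

/-- If every non-identity element of the cyclic group `S` has the same centraliser `C` in `G`,
then the canonical extension is `± β ⊗ μ` off `G`, and `χ_C = |S| ϑ ± β`. -/
theorem semi [Fintype Γ] [Fintype G] [Fintype 𝒞] (h : Setup G S s)
    (hfpf : ∀ x ∈ S, x ≠ 1 → G ⊓ Subgroup.centralizer ({x} : Set Γ) = 𝒞)
    {χ : G → ℂ} (hχ : IsIrrCharacter G χ) {X : Γ → ℂ} (hX : IsCanonExt G χ X)
    (β : IrrCharacter 𝒞) (ε₀ : ℤ) (hε₀ : ε₀ = 1 ∨ ε₀ = -1)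
    (hβ : ∀ c : 𝒞, X ((c : Γ) * s) = (ε₀ : ℂ) * β.1 c) :
    ∃ ε : ℤ, (ε = 1 ∨ ε = -1) ∧
      (∃ μ : S → ℂ, IsCharacter S μ ∧ μ 1 = 1 ∧ (∀ x : S, μ x * μ x = 1) ∧
        ∀ c : 𝒞, ∀ x : S, x ≠ 1 → X ((c : Γ) * x) = (ε : ℂ) * β.1 c * μ x) ∧
      (∃ ϑ : 𝒞 → ℂ, IsCharacter 𝒞 ϑ ∧
        (fun c : 𝒞 => X c) = fun c => (Nat.card S : ℂ) * ϑ c + (ε : ℂ) * β.1 c) := by
  classical
  haveI : Fintype S := Fintype.ofFinite S
  letI := fintypeIrr 𝒞
  obtain ⟨ℓ, hker, hpow⟩ := h.exists_lin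
  have hXchar : IsCharacter Γ X := isCharacter_of_isIrrCharacter hX.1
  by_cases hn1 : Nat.card S = 1
  · -- trivial acting group
    haveI : Subsingleton S := (Nat.card_eq_one_iff_unique.mp hn1).1
    have hs1 : s = 1 := by
      have : (⟨s, h.s_mem⟩ : S) = 1 := Subsingleton.elim _ _
      exact congrArg Subtype.val this
    refine ⟨ε₀, hε₀, ⟨fun _ => 1, ?_, rfl, fun _ => by simp, fun c x hx => ?_⟩, ⟨0, isCharacter_zero, ?_⟩⟩
    · have := isCharacter_of_hom (1 : S →* ℂˣ)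
      simpa using this
    · exact absurd (Subsingleton.elim x 1) hx
    · funext c
      have := hβ c
      rw [hs1, mul_one] at this
      simp [this]
  -- the general case
  have hn2 : 2 ≤ Nat.card S := by
    have : 0 < Nat.card S := Nat.card_pos
    omega
  have hs1 : s ≠ 1 := by
    intro hs
    apply hn1
    rw [← h.orderOf_s, hs, orderOf_one]
  set f : IrrCharacter 𝒞 → S → ℂ :=
    fun γ x => classInner (fun c : 𝒞 => X ((c : Γ) * x)) γ.1 with hfdef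
  have hmult : ∀ (γ : IrrCharacter 𝒞) (j : ℕ), ∃ k : ℕ,
      ∑ x : S, f γ x * conj (((ℓ x : ℂˣ) : ℂ) ^ j) = (Nat.card S : ℂ) * (k : ℂ) :=
    fun γ j => h.mult_nat ℓ hker hXchar γ j
  choose mN hmN using hmult
  have hsub : ∀ x : S, x ≠ 1 → ∃ (βx : IrrCharacter 𝒞) (εx : ℤ), (εx = 1 ∨ εx = -1) ∧
      ∀ c : 𝒞, X ((c : Γ) * x) = (εx : ℂ) * βx.1 c := by
    intro x hx
    exact h.exists_sign_char_sub hχ hX x x.2
      (hfpf x x.2 (fun h1 => hx (Subtype.ext h1)))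
  choose βx εx hεx hvalx using hsub
  have hfx : ∀ (γ : IrrCharacter 𝒞) (x : S) (hx : x ≠ 1),
      f γ x = (εx x hx : ℂ) * (if βx x hx = γ then 1 else 0) := by
    intro γ x hx
    have h1 : (fun c : 𝒞 => X ((c : Γ) * x)) = (εx x hx : ℂ) • (βx x hx).1 :=
      funext fun c => hvalx x hx c
    change classInner (fun c : 𝒞 => X ((c : Γ) * x)) γ.1 = _
    rw [h1, classInner_smul_left, irr_inner]
  have hεsq : ∀ (x : S) (hx : x ≠ 1), (εx x hx : ℂ) * (εx x hx : ℂ) = 1 := by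
    intro x hx
    rcases hεx x hx with h1 | h1 <;> rw [h1] <;> norm_num
  have hf01 : ∀ (γ : IrrCharacter 𝒞) (x : S), x ≠ 1 → f γ x = 0 ∨ f γ x * conj (f γ x) = 1 := by
    intro γ x hx
    rw [hfx γ x hx]
    by_cases hβγ : βx x hx = γ
    · right
      rw [if_pos hβγ, mul_one, map_intCast]
      exact hεsq x hx
    · left
      rw [if_neg hβγ, mul_zero]
  have hmβ : ∀ j ∈ Finset.range (Nat.card S),
      ∑ x : S, f β x * conj (((ℓ x : ℂˣ) : ℂ) ^ j) =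
        (Nat.card S : ℂ) * (((fun j => (mN β j : ℤ)) j : ℤ) : ℂ) := by
    intro j _
    rw [hmN β j]
    push_cast
    rfl
  obtain ⟨j₁, hj₁, t, ht, hrest, hval, hone⟩ :=
    h.fourier_struct ℓ hker hpow (f β) (fun j => (mN β j : ℤ)) hmβ (hf01 β)
  -- the value at the generator
  set sS : S := ⟨s, h.s_mem⟩ with hsS
  have hsS1 : sS ≠ 1 := fun h1 => hs1 (congrArg Subtype.val h1)
  have hfs : f β sS = (ε₀ : ℂ) := by
    have h1 : (fun c : 𝒞 => X ((c : Γ) * (sS : Γ))) = (ε₀ : ℂ) • β.1 := funext fun c => hβ c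
    change classInner (fun c : 𝒞 => X ((c : Γ) * (sS : Γ))) β.1 = _
    rw [h1, classInner_smul_left, irr_inner_self, mul_one]
  have hε₀0 : (ε₀ : ℂ) ≠ 0 := by
    rcases hε₀ with rfl | rfl <;> norm_num
  have ht0 : t ≠ 0 := by
    intro ht0
    have h1 : (ε₀ : ℂ) = 0 := by
      rw [← hfs, hval sS hsS1, ht0]
      simp
    exact hε₀0 h1
  have ht' : t = 1 ∨ t = -1 := by
    rcases ht with h0 | h1 | h1
    · exact absurd h0 ht0
    · exact Or.inl h1
    · exact Or.inr h1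
  have ht2 : (t : ℂ) * (t : ℂ) = 1 := by
    rcases ht' with rfl | rfl <;> norm_num
  have htC0 : (t : ℂ) ≠ 0 := by
    rcases ht' with rfl | rfl <;> norm_num
  have hℓ0 : ∀ x : S, ((ℓ (x : Γ) : ℂˣ) : ℂ) ^ j₁ ≠ 0 := fun x => pow_ne_zero _ (Units.ne_zero _)
  -- all the `β_x` coincide with `β`
  have hβx : ∀ (x : S) (hx : x ≠ 1), βx x hx = β := by
    intro x hx
    by_contra hne
    have h1 := hfx β x hx
    rw [if_neg hne, mul_zero, hval x hx] at h1
    exact (mul_ne_zero (neg_ne_zero.mpr htC0) (hℓ0 x)) h1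
  have hεxval : ∀ (x : S) (hx : x ≠ 1),
      (εx x hx : ℂ) = -(t : ℂ) * ((ℓ (x : Γ) : ℂˣ) : ℂ) ^ j₁ := by
    intro x hx
    have h1 := hfx β x hx
    rw [if_pos (hβx x hx), mul_one, hval x hx] at h1
    exact h1.symm
  set μ : S → ℂ := fun x => ((ℓ (x : Γ) : ℂˣ) : ℂ) ^ j₁ with hμ
  have hμchar : IsCharacter S μ := by
    have := isCharacter_of_hom ((ℓ.comp S.subtype) ^ j₁)
    have h2 : (fun g : S => ((((ℓ.comp S.subtype) ^ j₁) g : ℂˣ) : ℂ)) = μ := by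
      funext g
      simp [hμ, MonoidHom.pow_apply]
    rwa [h2] at this
  have hμ1 : μ 1 = 1 := by simp [hμ]
  have hμsq : ∀ x : S, μ x * μ x = 1 := by
    intro x
    by_cases hx : x = 1
    · rw [hx, hμ1, one_mul]
    · calc μ x * μ x = ((t : ℂ) * (t : ℂ)) * (μ x * μ x) := by rw [ht2, one_mul]
        _ = (-(t : ℂ) * μ x) * (-(t : ℂ) * μ x) := by ring
        _ = (εx x hx : ℂ) * (εx x hx : ℂ) := by rw [← hεxval x hx]
        _ = 1 := hεsq x hx
  refine ⟨-t, ?_, ⟨μ, hμchar, hμ1, hμsq, fun c x hx => ?_⟩, ?_⟩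
  · rcases ht' with rfl | rfl
    · exact Or.inr rfl
    · exact Or.inl (by norm_num)
  · rw [hvalx x hx c, hβx x hx, hεxval x hx]
    push_cast
    ring
  -- the restriction to `C`
  obtain ⟨j₂, hj₂, hj₂ne⟩ : ∃ j₂ ∈ Finset.range (Nat.card S), j₂ ≠ j₁ := by
    by_cases h0 : j₁ = 0
    · exact ⟨1, Finset.mem_range.mpr (by omega), by omega⟩
    · exact ⟨0, Finset.mem_range.mpr (by omega), fun h => h0 h.symm⟩
  have hb : ((mN β j₁ : ℤ) + t) = (mN β j₂ : ℤ) := (hrest j₂ hj₂ hj₂ne).symm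
  have hfβ1 : f β 1 = (Nat.card S : ℂ) * (mN β j₂ : ℂ) + ((-t : ℤ) : ℂ) := by
    rw [hone, hb]
    push_cast
    ring
  have hfγ1 : ∀ γ : IrrCharacter 𝒞, γ ≠ β → f γ 1 = (Nat.card S : ℂ) * (mN γ 0 : ℂ) := by
    intro γ hγ
    rw [← hmN γ 0]
    have hz : ∀ x ∈ (Finset.univ : Finset S), x ≠ 1 →
        f γ x * conj (((ℓ x : ℂˣ) : ℂ) ^ 0) = 0 := by
      intro x _ hx
      rw [hfx γ x hx, if_neg (by rw [hβx x hx]; exact fun h => hγ h.symm)]
      simp
    rw [Finset.sum_eq_single_of_mem (1 : S) (Finset.mem_univ _) hz]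
    simp
  let a : IrrCharacter 𝒞 → ℕ := fun γ => if γ = β then mN β j₂ else mN γ 0
  have hXC : IsClassFunction 𝒞 (fun c : 𝒞 => X c) :=
    isClassFunction_of_isCharacter (isCharacter_restrict 𝒞 hXchar)
  have hf1 : ∀ γ : IrrCharacter 𝒞, classInner (fun c : 𝒞 => X c) γ.1 = f γ 1 := by
    intro γ
    change _ = classInner (fun c : 𝒞 => X ((c : Γ) * ((1 : S) : Γ))) γ.1
    simp
  refine ⟨∑ᶠ γ : IrrCharacter 𝒞, (a γ : ℂ) • (γ : 𝒞 → ℂ), isCharacter_finsum_irr a, ?_⟩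
  conv_lhs => rw [classFunction_eq_finsum hXC]
  rw [finsum_irr_eq_sum, finsum_irr_eq_sum]
  funext c
  simp only [Finset.sum_apply, Pi.smul_apply, smul_eq_mul]
  rw [Finset.mul_sum]
  have hterm : ∀ γ : IrrCharacter 𝒞, classInner (fun c : 𝒞 => X c) γ.1 * γ.1 c =
      (Nat.card S : ℂ) * ((a γ : ℂ) * γ.1 c) + (if γ = β then ((-t : ℤ) : ℂ) * β.1 c else 0) := by
    intro γ
    rw [hf1]
    by_cases hγ : γ = β
    · subst hγ
      rw [hfβ1]
      simp only [a, if_true]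
      ring
    · rw [hfγ1 γ hγ]
      simp only [a, if_neg hγ]
      ring
  rw [Finset.sum_congr rfl fun γ _ => hterm γ, Finset.sum_add_distrib, Finset.sum_ite_eq',
    if_pos (Finset.mem_univ _)]

end Setup

end Cfsg.Agent.Glaub
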